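import Cfsg.Agent.Lib.Helper17.E8I.DefsE

set_option autoImplicit false

namespace Cfsg.Agent.Lib.Helper8.E8I

open Cfsg.Lie Cfsg.Agent.Lib.Helper18 Cfsg.Agent.Lib.Helper17 Cfsg.Agent.Lib.Helper36
  Cfsg.Agent.Lib.Helper6 Matrix Cfsg.Agent.Lib.Helper17.E8I

theorem F3_bd {r s k : ℕ} (h : e8add r s = some k) : 120 ≤ r ∧ r < 240 ∧ 120 ≤ s ∧ s < 240 := by
  unfold e8add at h
  split_ifs at h with h1
  exact h1

/-- one table for all the facts about a sum `a + b = k` -/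
theorem F3_tab1_c0 : ∀ a : Fin 240, a.val < 140 → ∀ b : Fin 240, (e8add a b).all (fun k => decide
    ((∀ i : Fin 8, chevE8.cartan i k = chevE8.cartan i a + chevE8.cartan i b) ∧
      chevE8.pairing a b ≠ 0 ∧ chevE8.pairing a k = 1)) = true := by
  decide +kernel

theorem F3_tab1_c1 : ∀ a : Fin 240, 140 ≤ a.val → a.val < 160 → ∀ b : Fin 240, (e8add a b).all (fun k => decide
    ((∀ i : Fin 8, chevE8.cartan i k = chevE8.cartan i a + chevE8.cartan i b) ∧
      chevE8.pairing a b ≠ 0 ∧ chevE8.pairing a k = 1)) = true := by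
  decide +kernel

theorem F3_tab1_c2 : ∀ a : Fin 240, 160 ≤ a.val → a.val < 180 → ∀ b : Fin 240, (e8add a b).all (fun k => decide
    ((∀ i : Fin 8, chevE8.cartan i k = chevE8.cartan i a + chevE8.cartan i b) ∧
      chevE8.pairing a b ≠ 0 ∧ chevE8.pairing a k = 1)) = true := by
  decide +kernel

theorem F3_tab1_c3 : ∀ a : Fin 240, 180 ≤ a.val → a.val < 200 → ∀ b : Fin 240, (e8add a b).all (fun k => decide
    ((∀ i : Fin 8, chevE8.cartan i k = chevE8.cartan i a + chevE8.cartan i b) ∧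
      chevE8.pairing a b ≠ 0 ∧ chevE8.pairing a k = 1)) = true := by
  decide +kernel

theorem F3_tab1_c4 : ∀ a : Fin 240, 200 ≤ a.val → a.val < 220 → ∀ b : Fin 240, (e8add a b).all (fun k => decide
    ((∀ i : Fin 8, chevE8.cartan i k = chevE8.cartan i a + chevE8.cartan i b) ∧
      chevE8.pairing a b ≠ 0 ∧ chevE8.pairing a k = 1)) = true := by
  decide +kernel

theorem F3_tab1_c5 : ∀ a : Fin 240, 220 ≤ a.val → ∀ b : Fin 240, (e8add a b).all (fun k => decide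
    ((∀ i : Fin 8, chevE8.cartan i k = chevE8.cartan i a + chevE8.cartan i b) ∧
      chevE8.pairing a b ≠ 0 ∧ chevE8.pairing a k = 1)) = true := by
  decide +kernel

theorem F3_tab1 : ∀ a b : Fin 240, (e8add a b).all (fun k => decide
    ((∀ i : Fin 8, chevE8.cartan i k = chevE8.cartan i a + chevE8.cartan i b) ∧
      chevE8.pairing a b ≠ 0 ∧ chevE8.pairing a k = 1)) = true := by
  intro a b
  rcases lt_or_ge a.val 140 with h0 | h0
  · exact F3_tab1_c0 a h0 b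
  rcases lt_or_ge a.val 160 with h1 | h1
  · exact F3_tab1_c1 a h0 h1 b
  rcases lt_or_ge a.val 180 with h2 | h2
  · exact F3_tab1_c2 a h1 h2 b
  rcases lt_or_ge a.val 200 with h3 | h3
  · exact F3_tab1_c3 a h2 h3 b
  rcases lt_or_ge a.val 220 with h4 | h4
  · exact F3_tab1_c4 a h3 h4 b
  exact F3_tab1_c5 a h4 b

theorem F3_rank : chevE8.rank = 8 := by decide +kernel

theorem F3_add {a b k : ℕ} (h : e8add a b = some k) (r0 : ℕ) :
    chevE8.pairing r0 k = chevE8.pairing r0 a + chevE8.pairing r0 b := by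
  obtain ⟨-, ha, -, hb⟩ := F3_bd h
  have h1 := F3_tab1 ⟨a, ha⟩ ⟨b, hb⟩
  simp only [h, Option.all_some, decide_eq_true_eq] at h1
  have hc : ∀ i ∈ List.range chevE8.rank,
      chevE8.cartan i k = chevE8.cartan i a + chevE8.cartan i b := by
    intro i hi
    rw [F3_rank, List.mem_range] at hi
    exact h1.1 ⟨i, hi⟩
  unfold ChevalleyDatum.pairing
  rw [← List.sum_map_add]
  refine congrArg List.sum (List.map_congr_left ?_)
  intro i hi
  rw [hc i hi]
  ring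

/-- the difference `a - r0` -/
def F3_wit (r0 a : ℕ) : ℕ := (chevE8.chainRoot (chevE8.neg r0) a 1).getD 0

theorem F3_tab2_c0 : ∀ r0 : Fin 240, r0.val < 135 → ∀ r : Fin 240, 120 ≤ r0.val → r0 < r →
    chevE8.pairing r0 r = 0 ∨
      (chevE8.pairing r0 r = 1 ∧ e8add r0 (F3_wit r0 r) = some r.val) ∨
      (chevE8.pairing r0 r = -1 ∧ (e8add r0 r).isSome = true) := by
  decide +kernel

theorem F3_tab2_c1 : ∀ r0 : Fin 240, 135 ≤ r0.val → r0.val < 150 → ∀ r : Fin 240, 120 ≤ r0.val → r0 < r →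
    chevE8.pairing r0 r = 0 ∨
      (chevE8.pairing r0 r = 1 ∧ e8add r0 (F3_wit r0 r) = some r.val) ∨
      (chevE8.pairing r0 r = -1 ∧ (e8add r0 r).isSome = true) := by
  decide +kernel

theorem F3_tab2_c2 : ∀ r0 : Fin 240, 150 ≤ r0.val → r0.val < 170 → ∀ r : Fin 240, 120 ≤ r0.val → r0 < r →
    chevE8.pairing r0 r = 0 ∨
      (chevE8.pairing r0 r = 1 ∧ e8add r0 (F3_wit r0 r) = some r.val) ∨
      (chevE8.pairing r0 r = -1 ∧ (e8add r0 r).isSome = true) := by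
  decide +kernel

theorem F3_tab2_c3 : ∀ r0 : Fin 240, 170 ≤ r0.val → r0.val < 195 → ∀ r : Fin 240, 120 ≤ r0.val → r0 < r →
    chevE8.pairing r0 r = 0 ∨
      (chevE8.pairing r0 r = 1 ∧ e8add r0 (F3_wit r0 r) = some r.val) ∨
      (chevE8.pairing r0 r = -1 ∧ (e8add r0 r).isSome = true) := by
  decide +kernel

theorem F3_tab2_c4 : ∀ r0 : Fin 240, 195 ≤ r0.val → ∀ r : Fin 240, 120 ≤ r0.val → r0 < r →
    chevE8.pairing r0 r = 0 ∨
      (chevE8.pairing r0 r = 1 ∧ e8add r0 (F3_wit r0 r) = some r.val) ∨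
      (chevE8.pairing r0 r = -1 ∧ (e8add r0 r).isSome = true) := by
  decide +kernel

theorem F3_tab2 : ∀ r0 r : Fin 240, 120 ≤ r0.val → r0 < r →
    chevE8.pairing r0 r = 0 ∨
      (chevE8.pairing r0 r = 1 ∧ e8add r0 (F3_wit r0 r) = some r.val) ∨
      (chevE8.pairing r0 r = -1 ∧ (e8add r0 r).isSome = true) := by
  intro r0 r
  rcases lt_or_ge r0.val 135 with h0 | h0
  · exact F3_tab2_c0 r0 h0 r
  rcases lt_or_ge r0.val 150 with h1 | h1
  · exact F3_tab2_c1 r0 h0 h1 r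
  rcases lt_or_ge r0.val 170 with h2 | h2
  · exact F3_tab2_c2 r0 h1 h2 r
  rcases lt_or_ge r0.val 195 with h3 | h3
  · exact F3_tab2_c3 r0 h2 h3 r
  exact F3_tab2_c4 r0 h3 r

/-- [F3] -/
theorem e8_tri (r0 r : ℕ) (h0 : 120 ≤ r0) (h1 : r0 < r) (h2 : r < 240) :
    e8orth r0 r ∨ (∃ d, e8add r0 d = some r) ∨ (∃ p, e8add r0 r = some p) := by
  rcases F3_tab2 ⟨r0, by omega⟩ ⟨r, h2⟩ h0 h1 with h | h | h
  · exact Or.inl h
  · exact Or.inr (Or.inl ⟨_, h.2⟩)
  · exact Or.inr (Or.inr (Option.isSome_iff_exists.1 h.2))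

theorem e8_orth_none (r0 r : ℕ) (h : e8orth r0 r) : e8add r0 r = none := by
  by_contra hne
  obtain ⟨k, hk⟩ := Option.ne_none_iff_exists'.1 hne
  obtain ⟨-, ha, -, hb⟩ := F3_bd hk
  have h1 := F3_tab1 ⟨r0, ha⟩ ⟨r, hb⟩
  simp only [hk, Option.all_some, decide_eq_true_eq] at h1
  exact h1.2.1 h

theorem e8_orth_add (r0 a b k : ℕ) (ha : e8orth r0 a) (hb : e8orth r0 b) (h : e8add a b = some k) :
    e8orth r0 k := by
  unfold e8orth at *
  rw [F3_add h r0, ha, hb, add_zero]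

theorem e8_orth_sub (r0 a d k : ℕ) (ha : e8orth r0 a) (hk : e8orth r0 k) (h : e8add a d = some k) :
    e8orth r0 d := by
  unfold e8orth at *
  have h1 := F3_add h r0
  rw [hk, ha, zero_add] at h1
  exact h1.symm

theorem e8_good_add (r0 a b k d : ℕ) (ha : r0 < a) (hb : r0 < b) (h : e8add a b = some k)
    (hd : e8add r0 d = some k) : (∃ d', e8add r0 d' = some a) ∨ (∃ d', e8add r0 d' = some b) := by
  obtain ⟨h36, h72, -, hd72⟩ := F3_bd hd
  obtain ⟨-, ha72, -, hb72⟩ := F3_bd h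
  have h1 := F3_tab1 ⟨r0, h72⟩ ⟨d, hd72⟩
  simp only [hd, Option.all_some, decide_eq_true_eq] at h1
  have h2 := F3_add h r0
  rw [h1.2.2] at h2
  have h3 := F3_tab2 ⟨r0, h72⟩ ⟨a, ha72⟩ h36 ha
  have h4 := F3_tab2 ⟨r0, h72⟩ ⟨b, hb72⟩ h36 hb
  rcases h3 with h3 | h3 | h3
  · rcases h4 with h4 | h4 | h4
    · exfalso
      have e1 : chevE8.pairing r0 a = 0 := h3
      have e2 : chevE8.pairing r0 b = 0 := h4
      omega
    · exact Or.inr ⟨_, h4.2⟩
    · exfalso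
      have e1 : chevE8.pairing r0 a = 0 := h3
      have e2 : chevE8.pairing r0 b = -1 := h4.1
      omega
  · exact Or.inl ⟨_, h3.2⟩
  · rcases h4 with h4 | h4 | h4
    · exfalso
      have e1 : chevE8.pairing r0 a = -1 := h3.1
      have e2 : chevE8.pairing r0 b = 0 := h4
      omega
    · exact Or.inr ⟨_, h4.2⟩
    · exfalso
      have e1 : chevE8.pairing r0 a = -1 := h3.1
      have e2 : chevE8.pairing r0 b = -1 := h4.1
      omega

end Cfsg.Agent.Lib.Helper8.E8I
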